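import Cfsg.Agent.Lib.Helper55.Asch.FormCore

set_option autoImplicit false

namespace Cfsg.Agent.Lib.Helper55.Asch

open Cfsg Cfsg.Geo Matrix Cfsg.Agent.Lib.Helper13.Asch
open scoped Kronecker MatrixGroups

variable {ι : Type} [Fintype ι] [DecidableEq ι] {F : Type*} [Field F]

/-- L9a -/
theorem sim_of_fixes_bilin (H N : Subgroup (GL ι F)) (hN : Nrm H N) (henv : env N = ⊤)
    (f : (ι → F) → (ι → F) → F) (hb : IsBilinearForm f) (hnd : IsNondegenerateForm f)
    (hf : FixesForm (matrixSet N) f) : H ≤ similarityGroup f :=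
  sim_of_fixes_gen H N hN henv (RingEquiv.refl F) f hb.add_left hb.smul_left hb.add_right
    (fun c v x => by simpa using hb.smul_right c v x) hnd hf

end Cfsg.Agent.Lib.Helper55.Asch
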