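import Cfsg.Agent.Lib.Helper55.Asch.FormCore

set_option autoImplicit false

namespace Cfsg.Agent.Lib.Helper55.Asch

open Cfsg Cfsg.Geo Matrix Cfsg.Agent.Lib.Helper13.Asch
open scoped Kronecker MatrixGroups

variable {ι : Type} [Fintype ι] [DecidableEq ι] {F : Type*} [Field F]

/-- L9b -/
theorem sim_of_fixes_unitary (H N : Subgroup (GL ι F)) (hN : Nrm H N) (henv : env N = ⊤)
    (σ : F ≃+* F) (f : (ι → F) → (ι → F) → F) (hu : IsUnitaryForm σ f)
    (hf : FixesForm (matrixSet N) f) : H ≤ similarityGroup f :=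
  sim_of_fixes_gen H N hN henv σ f hu.add_left hu.smul_left
    (fun v x y => by rw [hu.herm v (x + y), hu.add_left, map_add, ← hu.herm, ← hu.herm])
    (fun c v x => by rw [hu.herm v (c • x), hu.smul_left, map_mul, ← hu.herm]) hu.nondegenerate hf

end Cfsg.Agent.Lib.Helper55.Asch
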