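import Cfsg.Agent.Lib.Helper55.Asch.L9a

set_option autoImplicit false

namespace Cfsg.Agent.Lib.Helper55.Asch

open Cfsg Cfsg.Geo Matrix Cfsg.Agent.Lib.Helper13.Asch
open scoped Kronecker MatrixGroups

variable {ι : Type} [Fintype ι] [DecidableEq ι] {F : Type*} [Field F]

/-- L9c -/
theorem sim_of_fixes_quad (h2 : (2 : F) ≠ 0) (H N : Subgroup (GL ι F)) (hN : Nrm H N)
    (henv : env N = ⊤) (Q : (ι → F) → F) (hQ : IsNondegenerateQuadraticForm Q)
    (hf : FixesQuadForm (matrixSet N) Q) : H ≤ quadSimilarityGroup Q := by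
  have hfix : FixesForm (matrixSet N) (QuadraticMap.polar Q) := by
    intro s hs u v
    simp only [QuadraticMap.polar]
    rw [← Matrix.mulVec_add, hf s hs, hf s hs, hf s hs]
  have h := sim_of_fixes_bilin H N hN henv (QuadraticMap.polar Q) hQ.polar_bilinear
    hQ.nondegenerate hfix
  have hpol : ∀ v, QuadraticMap.polar Q v v = 2 * Q v := by
    intro v
    have h1 : v + v = (2 : F) • v := by rw [two_smul]
    simp only [QuadraticMap.polar]
    rw [h1, hQ.smul]
    ring
  intro g hg
  obtain ⟨c, hc⟩ := h hg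
  refine ⟨c, fun v => ?_⟩
  have h3 := hc v v
  rw [hpol, hpol] at h3
  apply mul_left_cancel₀ h2
  rw [h3]
  ring

end Cfsg.Agent.Lib.Helper55.Asch
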