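import Cfsg.Agent.Lib.Helper13.Asch.Defs

set_option autoImplicit false

namespace Cfsg.Agent.Lib.Helper55.Asch

open Cfsg Cfsg.Geo Matrix Cfsg.Agent.Lib.Helper13.Asch
open scoped Kronecker MatrixGroups

variable {ι : Type} [Fintype ι] [DecidableEq ι] {F : Type*} [Field F]

/-- L9d -/
theorem polar_symplectic (h2 : (2 : F) = 0) (Q : (ι → F) → F) (hQ : IsNondegenerateQuadraticForm Q) :
    IsSymplecticForm (QuadraticMap.polar Q) ∧ quadSimilarityGroup Q ≤ similarityGroup (QuadraticMap.polar Q) ∧
      ∀ S : Set (Matrix ι ι F), FixesQuadForm S Q → FixesForm S (QuadraticMap.polar Q) := by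
  have hneg : ∀ a : F, -a = a := by
    intro a
    have : a + a = 0 := by rw [← two_mul, h2, zero_mul]
    exact neg_eq_of_add_eq_zero_left this
  refine ⟨⟨hQ.polar_bilinear, ?_, ?_, hQ.nondegenerate⟩, ?_, ?_⟩
  · intro v w
    rw [hneg, QuadraticMap.polar_comm]
  · intro v
    have h1 : v + v = (2 : F) • v := by rw [two_smul]
    simp only [QuadraticMap.polar]
    rw [h1, hQ.smul, h2]
    have : Q v + Q v = 0 := by rw [← two_mul, h2, zero_mul]
    linear_combination -this
  · rintro g ⟨c, hc⟩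
    refine ⟨c, fun u v => ?_⟩
    simp only [QuadraticMap.polar]
    rw [← Matrix.mulVec_add, hc, hc, hc]
    ring
  · intro S hS s hs u v
    simp only [QuadraticMap.polar]
    rw [← Matrix.mulVec_add, hS s hs, hS s hs, hS s hs]

end Cfsg.Agent.Lib.Helper55.Asch
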