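import Cfsg.Agent.Lib.Helper13.Asch.Defs
import Cfsg.Agent.S0752

set_option autoImplicit false

namespace Cfsg.Agent.Lib.Helper55.Asch

open Cfsg Cfsg.Geo Matrix Cfsg.Agent.Lib.Helper13.Asch
open scoped Kronecker MatrixGroups

variable {ι : Type} [Fintype ι] [DecidableEq ι] {F : Type*} [Field F]

/-- L9e -/
theorem even_card_of_symplectic (f : (ι → F) → (ι → F) → F) (hf : IsSymplecticForm f) :
    Even (Fintype.card ι) := by
  classical
  let B : LinearMap.BilinForm F (ι → F) :=
    LinearMap.mk₂ F f hf.bilinear.add_left hf.bilinear.smul_left hf.bilinear.add_right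
      hf.bilinear.smul_right
  have hB : ∀ u v, B u v = f u v := fun u v => rfl
  have hA : B.IsAlt := fun v => hf.alternating v
  obtain ⟨m, k, b, -, -, -, h4⟩ := Cfsg.Agent.S0752.result B hA
  have hk : k = 0 := by
    by_contra hne
    have j : Fin k := ⟨0, Nat.pos_of_ne_zero hne⟩
    obtain ⟨x, hx⟩ := (hf.nondegenerate _ (b.ne_zero (Sum.inr j))).2
    exact hx (h4 j x)
  subst hk
  have e1 := Module.finrank_eq_card_basis b
  rw [Module.finrank_fintype_fun_eq_card] at e1
  rw [e1]
  simp
  
end Cfsg.Agent.Lib.Helper55.Asch
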