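import Cfsg.Agent.Lib.Helper13.Asch.Defs

set_option autoImplicit false

/-! # Coordinates adapted to a decomposition, block form of its stabiliser -/

namespace Cfsg.Agent.Lib.Helper55.Asch

open Cfsg Cfsg.Geo Matrix Cfsg.Agent.Lib.Helper13.Asch
open scoped Kronecker MatrixGroups

variable {ι : Type} [Fintype ι] [DecidableEq ι] {F : Type*} [Field F]

/-- coordinates adapted to a decomposition -/
theorem exists_coord {t m : ℕ} {D : Fin t → Submodule F (ι → F)} (hD : IsMDecomposition m D) :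
    ∃ Φ : (ι → F) ≃ₗ[F] (Fin t → Fin m → F), ∀ i u, u ∈ D i ↔ ∀ j, j ≠ i → Φ u j = 0 := by
  classical
  have hint : DirectSum.IsInternal D :=
    (DirectSum.isInternal_submodule_iff_iSupIndep_and_iSup_eq_top D).2 ⟨hD.indep, hD.iSup_eq_top⟩
  set bs : ∀ i, Module.Basis (Fin m) F (D i) :=
    fun i => Module.finBasisOfFinrankEq F (D i) (hD.finrank_eq i) with hbs
  set b := hint.collectedBasis bs with hb
  let Φ : (ι → F) ≃ₗ[F] (Fin t → Fin m → F) :=
    { toFun := fun u i a => b.repr u ⟨i, a⟩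
      map_add' := fun u v => by ext i a; simp
      map_smul' := fun c u => by ext i a; simp
      invFun := fun w => ∑ p : (Σ _ : Fin t, Fin m), w p.1 p.2 • b p
      left_inv := fun u => by
        show ∑ p : (Σ _ : Fin t, Fin m), b.repr u ⟨p.1, p.2⟩ • b p = u
        exact b.sum_repr u
      right_inv := fun w => by
        ext i a
        show b.repr (∑ p : (Σ _ : Fin t, Fin m), w p.1 p.2 • b p) ⟨i, a⟩ = w i a
        rw [b.repr_sum_self (fun p : (Σ _ : Fin t, Fin m) => w p.1 p.2)] }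
  have hΦ : ∀ u i a, Φ u i a = b.repr u ⟨i, a⟩ := fun u i a => rfl
  refine ⟨Φ, fun i u => ⟨fun hu j hj => ?_, fun h => ?_⟩⟩
  · ext a
    rw [hΦ]
    exact hint.collectedBasis_repr_of_mem_ne bs (Ne.symm hj) hu
  · rw [← b.sum_repr u]
    refine Submodule.sum_mem _ fun p _ => ?_
    by_cases hp : p.1 = i
    · refine Submodule.smul_mem _ _ ?_
      rw [← hp]
      exact hint.collectedBasis_mem bs p
    · have : b.repr u p = 0 := by
        have := congrFun (h p.1 hp) p.2
        rwa [hΦ] at this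
      rw [this, zero_smul]
      exact Submodule.zero_mem _

/-- D8 -/
theorem card_of_decomp {t m : ℕ} (D : Fin t → Submodule F (ι → F)) (hD : IsMDecomposition m D) :
    t * m = Fintype.card ι := by
  obtain ⟨Φ, -⟩ := exists_coord hD
  have h := Φ.finrank_eq
  rw [Module.finrank_fintype_fun_eq_card] at h
  rw [h, Module.finrank_pi_fintype]
  simp

/-- block form of an element of the stabiliser of a decomposition -/
theorem exists_blocks {t m : ℕ} {D : Fin t → Submodule F (ι → F)}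
    (Φ : (ι → F) ≃ₗ[F] (Fin t → Fin m → F)) (hΦ : ∀ i u, u ∈ D i ↔ ∀ j, j ≠ i → Φ u j = 0)
    (g : GL ι F) (hg : g ∈ decompositionStabilizer D) :
    ∃ (σ : Equiv.Perm (Fin t)) (A : Fin t → Matrix (Fin m) (Fin m) F), (∀ i, (A i).det ≠ 0) ∧
      ∀ u i, Φ ((g : Matrix ι ι F) *ᵥ u) (σ i) = A i *ᵥ Φ u i := by
  classical
  obtain ⟨σ, hσ⟩ := hg
  have hmap : ∀ i x, x ∈ D i → (g : Matrix ι ι F) *ᵥ x ∈ D (σ i) := by
    intro i x hx
    rw [← hσ i]
    exact ⟨x, hx, by simp [Matrix.toLin'_apply]⟩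
  have hE : ∀ i (w : Fin m → F), Φ.symm (Pi.single i w) ∈ D i := by
    intro i w
    rw [hΦ]
    intro j hj
    rw [LinearEquiv.apply_symm_apply, Pi.single_eq_of_ne hj]
  let T : ∀ i : Fin t, (Fin m → F) →ₗ[F] (Fin m → F) := fun i =>
    (LinearMap.proj (σ i)) ∘ₗ Φ.toLinearMap ∘ₗ (Matrix.toLin' (g : Matrix ι ι F)) ∘ₗ
      Φ.symm.toLinearMap ∘ₗ (LinearMap.single F (fun _ : Fin t => Fin m → F) i)
  have hT : ∀ i w, T i w = Φ ((g : Matrix ι ι F) *ᵥ Φ.symm (Pi.single i w)) (σ i) := by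
    intro i w
    simp [T, Matrix.toLin'_apply]
  refine ⟨σ, fun i => LinearMap.toMatrix' (T i), fun i h0 => ?_, fun u i => ?_⟩
  · obtain ⟨w, hw, hAw⟩ := Matrix.exists_mulVec_eq_zero_iff.2 h0
    rw [LinearMap.toMatrix'_mulVec, hT] at hAw
    apply hw
    have hx := hmap i _ (hE i w)
    have hx0 : Φ ((g : Matrix ι ι F) *ᵥ Φ.symm (Pi.single i w)) = 0 := by
      ext1 j
      by_cases hj : j = σ i
      · rw [hj, hAw]; rfl
      · exact (hΦ _ _).1 hx j hj
    have hx1 : (g : Matrix ι ι F) *ᵥ Φ.symm (Pi.single i w) = 0 := by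
      simpa using hx0
    have hx2 : Φ.symm (Pi.single i w) = 0 := by
      have := congrArg (fun y => ((g⁻¹ : GL ι F) : Matrix ι ι F) *ᵥ y) hx1
      simpa [Matrix.mulVec_mulVec, ← Units.val_mul] using this
    have hx3 : (Pi.single i w : Fin t → Fin m → F) = 0 := by simpa using hx2
    have := congrFun hx3 i
    simpa using this
  · rw [LinearMap.toMatrix'_mulVec, hT]
    have hu : u = ∑ j, Φ.symm (Pi.single j (Φ u j)) := by
      rw [← map_sum, Finset.univ_sum_single, LinearEquiv.symm_apply_apply]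
    conv_lhs => rw [hu, Matrix.mulVec_sum, map_sum, Finset.sum_apply]
    rw [Finset.sum_eq_single i]
    · intro j _ hj
      exact (hΦ _ _).1 (hmap j _ (hE j _)) (σ i) (fun h => hj (σ.injective h).symm)
    · intro h; exact absurd (Finset.mem_univ i) h

/-- the orthogonal sum of copies of a form `β` on the blocks -/
def sumform {t m : ℕ} (Φ : (ι → F) ≃ₗ[F] (Fin t → Fin m → F))
    (β : (Fin m → F) → (Fin m → F) → F) (u v : ι → F) : F := ∑ i, β (Φ u i) (Φ v i)

theorem sumform_mulVec {t m : ℕ} (Φ : (ι → F) ≃ₗ[F] (Fin t → Fin m → F))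
    (β : (Fin m → F) → (Fin m → F) → F) (g : Matrix ι ι F) (σ : Equiv.Perm (Fin t))
    (A : Fin t → Matrix (Fin m) (Fin m) F) (hA : ∀ u i, Φ (g *ᵥ u) (σ i) = A i *ᵥ Φ u i) (c : F)
    (hc : ∀ i x y, β (A i *ᵥ x) (A i *ᵥ y) = c * β x y) (u v : ι → F) :
    sumform Φ β (g *ᵥ u) (g *ᵥ v) = c * sumform Φ β u v := by
  simp only [sumform]
  rw [← Equiv.sum_comp σ, Finset.mul_sum]
  refine Finset.sum_congr rfl fun i _ => ?_
  rw [hA, hA, hc]

theorem sumform_add_left {t m : ℕ} (Φ : (ι → F) ≃ₗ[F] (Fin t → Fin m → F))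
    (β : (Fin m → F) → (Fin m → F) → F) (h : ∀ x y v, β (x + y) v = β x v + β y v) (x y v : ι → F) :
    sumform Φ β (x + y) v = sumform Φ β x v + sumform Φ β y v := by
  simp only [sumform, map_add, Pi.add_apply, h, Finset.sum_add_distrib]

theorem sumform_add_right {t m : ℕ} (Φ : (ι → F) ≃ₗ[F] (Fin t → Fin m → F))
    (β : (Fin m → F) → (Fin m → F) → F) (h : ∀ v x y, β v (x + y) = β v x + β v y) (v x y : ι → F) :
    sumform Φ β v (x + y) = sumform Φ β v x + sumform Φ β v y := by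
  simp only [sumform, map_add, Pi.add_apply, h, Finset.sum_add_distrib]

theorem sumform_smul_left {t m : ℕ} (Φ : (ι → F) ≃ₗ[F] (Fin t → Fin m → F))
    (β : (Fin m → F) → (Fin m → F) → F) (h : ∀ (c : F) x v, β (c • x) v = c * β x v) (c : F)
    (x v : ι → F) : sumform Φ β (c • x) v = c * sumform Φ β x v := by
  simp only [sumform, map_smul, Pi.smul_apply, h, Finset.mul_sum]

theorem sumform_smul_right {t m : ℕ} (Φ : (ι → F) ≃ₗ[F] (Fin t → Fin m → F))
    (β : (Fin m → F) → (Fin m → F) → F) (h : ∀ (c : F) v x, β v (c • x) = c * β v x) (c : F)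
    (v x : ι → F) : sumform Φ β v (c • x) = c * sumform Φ β v x := by
  simp only [sumform, map_smul, Pi.smul_apply, h, Finset.mul_sum]

theorem sumform_bilinear {t m : ℕ} (Φ : (ι → F) ≃ₗ[F] (Fin t → Fin m → F))
    (β : (Fin m → F) → (Fin m → F) → F) (h : IsBilinearForm β) : IsBilinearForm (sumform Φ β) :=
  ⟨sumform_add_left Φ β h.add_left, sumform_smul_left Φ β h.smul_left,
    sumform_add_right Φ β h.add_right, sumform_smul_right Φ β h.smul_right⟩

theorem sumform_nondeg {t m : ℕ} (Φ : (ι → F) ≃ₗ[F] (Fin t → Fin m → F))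
    (β : (Fin m → F) → (Fin m → F) → F) (h0l : ∀ y, β 0 y = 0) (h0r : ∀ x, β x 0 = 0)
    (h : IsNondegenerateForm β) : IsNondegenerateForm (sumform Φ β) := by
  classical
  intro v hv
  have hΦv : Φ v ≠ 0 := by simpa using hv
  obtain ⟨i, hi⟩ : ∃ i, Φ v i ≠ 0 := by
    by_contra hcon
    push Not at hcon
    exact hΦv (funext hcon)
  obtain ⟨⟨x, hx⟩, ⟨y, hy⟩⟩ := h _ hi
  constructor
  · refine ⟨Φ.symm (Pi.single i x), ?_⟩
    simp only [sumform, LinearEquiv.apply_symm_apply]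
    rw [Finset.sum_eq_single i]
    · simpa using hx
    · intro j _ hj
      rw [Pi.single_eq_of_ne hj, h0l]
    · intro h; exact absurd (Finset.mem_univ i) h
  · refine ⟨Φ.symm (Pi.single i y), ?_⟩
    simp only [sumform, LinearEquiv.apply_symm_apply]
    rw [Finset.sum_eq_single i]
    · simpa using hy
    · intro j _ hj
      rw [Pi.single_eq_of_ne hj, h0r]
    · intro h; exact absurd (Finset.mem_univ i) h

end Cfsg.Agent.Lib.Helper55.Asch
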