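import Cfsg.Agent.Lib.Helper13.Asch.Defs

set_option autoImplicit false

/-! # Gram matrices of (semi)bilinear forms and uniqueness of invariant forms -/

namespace Cfsg.Agent.Lib.Helper55.Asch

open Cfsg Cfsg.Geo Matrix Cfsg.Agent.Lib.Helper13.Asch
open scoped Kronecker MatrixGroups

variable {ι : Type} [Fintype ι] [DecidableEq ι] {F : Type*} [Field F]

/-- a matrix commuting with a group spanning the full matrix algebra is scalar -/
theorem scalar_of_commute55 {N : Subgroup (GL ι F)} (henv : env N = ⊤) (M : Matrix ι ι F)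
    (hM : ∀ x ∈ N, M * (x : Matrix ι ι F) = (x : Matrix ι ι F) * M) :
    ∃ c : F, M = c • (1 : Matrix ι ι F) := by
  have h1 : env N ≤ Subalgebra.centralizer F {M} := by
    apply Algebra.adjoin_le
    rintro _ ⟨x, hx, rfl⟩
    rw [SetLike.mem_coe, Subalgebra.mem_centralizer_iff]
    intro m hm
    rw [Set.mem_singleton_iff] at hm
    subst hm
    exact hM x hx
  rw [henv] at h1
  have h2 : ∀ A : Matrix ι ι F, M * A = A * M := fun A => by
    have := h1 (Algebra.mem_top : A ∈ (⊤ : Subalgebra F (Matrix ι ι F)))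
    rw [Subalgebra.mem_centralizer_iff] at this
    exact this M rfl
  obtain ⟨c, hc⟩ := Matrix.mem_range_scalar_of_commute_single (M := M)
    (fun i j _ => (h2 (Matrix.single i j 1)).symm)
  refine ⟨c, ?_⟩
  rw [← hc, Matrix.smul_one_eq_diagonal]
  rfl

/-- the Gram matrix of a form -/
def gram (f : (ι → F) → (ι → F) → F) : Matrix ι ι F :=
  Matrix.of fun i j => f (Pi.single i 1) (Pi.single j 1)

/-- a form linear in the first and `σ`-semilinear in the second variable is given by its Gram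
matrix -/
theorem eq_gform (σ : F →+* F) (f : (ι → F) → (ι → F) → F)
    (al : ∀ x y v, f (x + y) v = f x v + f y v) (sl : ∀ (c : F) (x v : ι → F), f (c • x) v = c * f x v)
    (ar : ∀ v x y, f v (x + y) = f v x + f v y)
    (sr : ∀ (c : F) (v x : ι → F), f v (c • x) = σ c * f v x) (u v : ι → F) :
    f u v = gform σ (gram f) u v := by
  have zl : ∀ v, f 0 v = 0 := fun v => by simpa using sl 0 0 v
  have zr : ∀ v, f v 0 = 0 := fun v => by simpa using sr 0 v 0
  have suml : ∀ (s : Finset ι) (g : ι → (ι → F)) (v : ι → F),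
      f (∑ i ∈ s, g i) v = ∑ i ∈ s, f (g i) v := by
    intro s g v
    induction s using Finset.induction_on with
    | empty => simp [zl]
    | insert a s ha ih => rw [Finset.sum_insert ha, Finset.sum_insert ha, al, ih]
  have sumr : ∀ (s : Finset ι) (g : ι → (ι → F)) (v : ι → F),
      f v (∑ i ∈ s, g i) = ∑ i ∈ s, f v (g i) := by
    intro s g v
    induction s using Finset.induction_on with
    | empty => simp [zr]
    | insert a s ha ih => rw [Finset.sum_insert ha, Finset.sum_insert ha, ar, ih]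
  conv_lhs => rw [pi_eq_sum_univ' u, pi_eq_sum_univ' v]
  rw [suml]
  simp only [gform, dotProduct, Matrix.mulVec, gram, Matrix.of_apply]
  refine Finset.sum_congr rfl fun i _ => ?_
  rw [sl, sumr]
  congr 1
  refine Finset.sum_congr rfl fun j _ => ?_
  rw [sr, mul_comm]

/-- evaluation of `gform` on basis vectors -/
theorem gform_single (σ : F →+* F) (G : Matrix ι ι F) (i j : ι) :
    gform σ G (Pi.single i 1) (Pi.single j 1) = G i j := by
  have h : (fun k => σ ((Pi.single j 1 : ι → F) k)) = Pi.single j 1 := by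
    ext k
    by_cases hk : k = j
    · subst hk; simp
    · simp [Pi.single_eq_of_ne hk]
  simp only [gform, h]
  simp

theorem gform_ext (σ : F →+* F) {G G' : Matrix ι ι F}
    (h : ∀ u v, gform σ G u v = gform σ G' u v) : G = G' := by
  ext i j
  rw [← gform_single σ G, ← gform_single σ G', h]

/-- transformation rule -/
theorem gform_mulVec (σ : F →+* F) (G x : Matrix ι ι F) (u v : ι → F) :
    gform σ G (x *ᵥ u) (x *ᵥ v) = gform σ (xᵀ * G * x.map σ) u v := by
  have h : (fun i => σ ((x *ᵥ v) i)) = x.map σ *ᵥ (fun i => σ (v i)) := by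
    ext i
    exact RingHom.map_mulVec σ x v i
  simp only [gform, h]
  rw [← Matrix.mulVec_mulVec, ← Matrix.mulVec_mulVec, Matrix.dotProduct_mulVec u xᵀ,
    Matrix.vecMul_transpose]

theorem gform_smul (σ : F →+* F) (c : F) (G : Matrix ι ι F) (u v : ι → F) :
    gform σ (c • G) u v = c * gform σ G u v := by
  simp only [gform]
  rw [Matrix.smul_mulVec, dotProduct_smul, smul_eq_mul]

/-- non-degeneracy gives an invertible Gram matrix (bijective `σ`) -/
theorem isUnit_det_of_nondeg (σ : F ≃+* F) (G : Matrix ι ι F)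
    (h : ∀ v : ι → F, v ≠ 0 → ∃ x, gform (σ : F →+* F) G x v ≠ 0) : IsUnit G.det := by
  rw [isUnit_iff_ne_zero]
  intro h0
  obtain ⟨w, hw, hGw⟩ := Matrix.exists_mulVec_eq_zero_iff.2 h0
  have hv : (fun i => σ.symm (w i)) ≠ 0 := by
    intro h1
    apply hw
    ext i
    have := congrFun h1 i
    simpa using this
  obtain ⟨x, hx⟩ := h _ hv
  apply hx
  have : (fun i => (σ : F →+* F) (σ.symm (w i))) = w := by
    ext i; simp
  simp only [gform, this, hGw, dotProduct_zero]

/-- converse: an invertible Gram matrix gives a non-degenerate form -/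
theorem nondeg_of_isUnit_det (σ : F ≃+* F) (G : Matrix ι ι F) (hG : IsUnit G.det) :
    IsNondegenerateForm (gform (σ : F →+* F) G) := by
  intro v hv
  constructor
  · by_contra hcon
    push Not at hcon
    have hsv : (fun i => (σ : F →+* F) (v i)) ≠ 0 := by
      intro h1
      apply hv
      ext i
      have := congrFun h1 i
      simpa using this
    have h0 : G *ᵥ (fun i => (σ : F →+* F) (v i)) = 0 := by
      ext i
      have := hcon (Pi.single i 1)
      simpa [gform] using this
    exact (isUnit_iff_ne_zero.1 hG) (Matrix.exists_mulVec_eq_zero_iff.1 ⟨_, hsv, h0⟩)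
  · by_contra hcon
    push Not at hcon
    have h0 : Gᵀ *ᵥ v = 0 := by
      ext j
      have := hcon (Pi.single j 1)
      have h : (fun k => (σ : F →+* F) ((Pi.single j 1 : ι → F) k)) = Pi.single j 1 := by
        ext k
        by_cases hk : k = j
        · subst hk; simp
        · simp [Pi.single_eq_of_ne hk]
      simp only [gform, h] at this
      rw [Matrix.dotProduct_mulVec, dotProduct_single, mul_one] at this
      rw [Matrix.mulVec_transpose]
      simpa using this
    have hG' : Gᵀ.det ≠ 0 := by rw [Matrix.det_transpose]; exact isUnit_iff_ne_zero.1 hG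
    exact hG' (Matrix.exists_mulVec_eq_zero_iff.1 ⟨_, hv, h0⟩)

/-- **uniqueness of invariant forms**: two `N`-invariant Gram matrices, one of them invertible,
are proportional -/
theorem gram_unique {N : Subgroup (GL ι F)} (henv : env N = ⊤) (σ : F →+* F)
    (G G' : Matrix ι ι F) (hG : IsUnit G.det)
    (h : ∀ x ∈ N, (x : Matrix ι ι F)ᵀ * G * (x : Matrix ι ι F).map σ = G)
    (h' : ∀ x ∈ N, (x : Matrix ι ι F)ᵀ * G' * (x : Matrix ι ι F).map σ = G') :
    ∃ c : F, G' = c • G := by
  have key : ∀ (K : Matrix ι ι F), (∀ x ∈ N, (x : Matrix ι ι F)ᵀ * K * (x : Matrix ι ι F).map σ = K) →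
      ∀ x ∈ N, (x : Matrix ι ι F)ᵀ * K = K * ((x⁻¹ : GL ι F) : Matrix ι ι F).map σ := by
    intro K hK x hx
    have h1 := hK x⁻¹ (N.inv_mem hx)
    have h2 : (x : Matrix ι ι F)ᵀ * ((x⁻¹ : GL ι F) : Matrix ι ι F)ᵀ = 1 := by
      rw [← Matrix.transpose_mul, ← Units.val_mul, inv_mul_cancel, Units.val_one,
        Matrix.transpose_one]
    calc (x : Matrix ι ι F)ᵀ * K
        = (x : Matrix ι ι F)ᵀ * (((x⁻¹ : GL ι F) : Matrix ι ι F)ᵀ * K *
            ((x⁻¹ : GL ι F) : Matrix ι ι F).map σ) := by rw [h1]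
      _ = ((x : Matrix ι ι F)ᵀ * ((x⁻¹ : GL ι F) : Matrix ι ι F)ᵀ) * K *
            ((x⁻¹ : GL ι F) : Matrix ι ι F).map σ := by simp only [Matrix.mul_assoc]
      _ = K * ((x⁻¹ : GL ι F) : Matrix ι ι F).map σ := by rw [h2, Matrix.one_mul]
  have hGi : G * G⁻¹ = 1 := Matrix.mul_nonsing_inv G hG
  have hGi' : G⁻¹ * G = 1 := Matrix.nonsing_inv_mul G hG
  have hcomm : ∀ x ∈ N, (G' * G⁻¹)ᵀ * (x : Matrix ι ι F) = (x : Matrix ι ι F) * (G' * G⁻¹)ᵀ := by
    intro x hx
    have e1 : (x : Matrix ι ι F)ᵀ * (G' * G⁻¹) = (G' * G⁻¹) * (x : Matrix ι ι F)ᵀ := by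
      calc (x : Matrix ι ι F)ᵀ * (G' * G⁻¹)
          = ((x : Matrix ι ι F)ᵀ * G') * G⁻¹ := by rw [Matrix.mul_assoc]
        _ = G' * ((x⁻¹ : GL ι F) : Matrix ι ι F).map σ * G⁻¹ := by rw [key G' h' x hx]
        _ = G' * (G⁻¹ * G) * ((x⁻¹ : GL ι F) : Matrix ι ι F).map σ * G⁻¹ := by
            rw [hGi', Matrix.mul_one]
        _ = G' * G⁻¹ * (G * ((x⁻¹ : GL ι F) : Matrix ι ι F).map σ) * G⁻¹ := by
            simp only [Matrix.mul_assoc]
        _ = G' * G⁻¹ * ((x : Matrix ι ι F)ᵀ * G) * G⁻¹ := by rw [key G h x hx]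
        _ = G' * G⁻¹ * (x : Matrix ι ι F)ᵀ * (G * G⁻¹) := by simp only [Matrix.mul_assoc]
        _ = (G' * G⁻¹) * (x : Matrix ι ι F)ᵀ := by rw [hGi, Matrix.mul_one]
    have e2 := congrArg Matrix.transpose e1
    rw [Matrix.transpose_mul (x : Matrix ι ι F)ᵀ (G' * G⁻¹),
      Matrix.transpose_mul (G' * G⁻¹) (x : Matrix ι ι F)ᵀ, Matrix.transpose_transpose] at e2
    exact e2
  obtain ⟨c, hc⟩ := scalar_of_commute55 henv _ hcomm
  refine ⟨c, ?_⟩
  have hc' : G' * G⁻¹ = c • (1 : Matrix ι ι F) := by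
    have := congrArg Matrix.transpose hc
    rwa [Matrix.transpose_transpose, Matrix.transpose_smul, Matrix.transpose_one] at this
  calc G' = G' * (G⁻¹ * G) := by rw [hGi', Matrix.mul_one]
    _ = (G' * G⁻¹) * G := by rw [Matrix.mul_assoc]
    _ = c • G := by rw [hc', Matrix.smul_mul, Matrix.one_mul]

/-- the normaliser of `N` consists of similarities of an `N`-invariant form given by an invertible
Gram matrix -/
theorem sim_of_gram (H N : Subgroup (GL ι F)) (hN : Nrm H N) (henv : env N = ⊤) (σ : F →+* F)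
    (G : Matrix ι ι F) (hG : IsUnit G.det)
    (h : ∀ x ∈ N, (x : Matrix ι ι F)ᵀ * G * (x : Matrix ι ι F).map σ = G) :
    ∀ g ∈ H, ∃ c : Fˣ, (g : Matrix ι ι F)ᵀ * G * (g : Matrix ι ι F).map σ = (c : F) • G := by
  intro g hg
  have hinv : ∀ x ∈ N, (x : Matrix ι ι F)ᵀ * ((g : Matrix ι ι F)ᵀ * G * (g : Matrix ι ι F).map σ) *
      (x : Matrix ι ι F).map σ = (g : Matrix ι ι F)ᵀ * G * (g : Matrix ι ι F).map σ := by
    intro x hx
    have h1 := h _ (hN g hg x hx)
    have e : (g : Matrix ι ι F) * (x : Matrix ι ι F) = ((g * x * g⁻¹ : GL ι F) : Matrix ι ι F) *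
        (g : Matrix ι ι F) := by
      rw [← Units.val_mul, ← Units.val_mul]
      congr 1
      group
    calc (x : Matrix ι ι F)ᵀ * ((g : Matrix ι ι F)ᵀ * G * (g : Matrix ι ι F).map σ) *
          (x : Matrix ι ι F).map σ
        = ((g : Matrix ι ι F) * (x : Matrix ι ι F))ᵀ * G *
            ((g : Matrix ι ι F) * (x : Matrix ι ι F)).map σ := by
          rw [Matrix.transpose_mul, Matrix.map_mul]
          simp only [Matrix.mul_assoc]
      _ = (g : Matrix ι ι F)ᵀ * (((g * x * g⁻¹ : GL ι F) : Matrix ι ι F)ᵀ * G *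
            ((g * x * g⁻¹ : GL ι F) : Matrix ι ι F).map σ) * (g : Matrix ι ι F).map σ := by
          rw [e, Matrix.transpose_mul, Matrix.map_mul]
          simp only [Matrix.mul_assoc]
      _ = _ := by rw [h1]
  obtain ⟨c, hc⟩ := gram_unique henv σ G _ hG h hinv
  by_cases hc0 : c = 0
  · -- then everything vanishes
    subst hc0
    rw [zero_smul] at hc
    have hgu : IsUnit (g : Matrix ι ι F).det := by
      rw [← Matrix.isUnit_iff_isUnit_det]; exact g.isUnit
    have hd : ((g : Matrix ι ι F)ᵀ * G * (g : Matrix ι ι F).map σ).det = 0 ∨ IsEmpty ι := by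
      rcases isEmpty_or_nonempty ι with he | he
      · exact Or.inr he
      · left; rw [hc]; exact Matrix.det_zero
    rcases hd with hd | he
    · exfalso
      rw [Matrix.det_mul, Matrix.det_mul, Matrix.det_transpose] at hd
      have h3 : ((g : Matrix ι ι F).map σ).det = σ (g : Matrix ι ι F).det := by
        rw [RingHom.map_det]; rfl
      rw [h3] at hd
      have h4 : σ (g : Matrix ι ι F).det ≠ 0 := by
        rw [Ne, map_eq_zero]; exact hgu.ne_zero
      exact (mul_ne_zero (mul_ne_zero hgu.ne_zero hG.ne_zero) h4) hd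
    · exact ⟨1, Subsingleton.elim _ _⟩
  · exact ⟨Units.mk0 c hc0, hc⟩

/-- generic version of L9a / L9b -/
theorem sim_of_fixes_gen (H N : Subgroup (GL ι F)) (hN : Nrm H N) (henv : env N = ⊤)
    (σ : F ≃+* F) (f : (ι → F) → (ι → F) → F)
    (al : ∀ x y v, f (x + y) v = f x v + f y v) (sl : ∀ (c : F) (x v : ι → F), f (c • x) v = c * f x v)
    (ar : ∀ v x y, f v (x + y) = f v x + f v y)
    (sr : ∀ (c : F) (v x : ι → F), f v (c • x) = σ c * f v x)
    (hnd : IsNondegenerateForm f) (hf : FixesForm (matrixSet N) f) : H ≤ similarityGroup f := by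
  have hE : ∀ u v, f u v = gform (σ : F →+* F) (gram f) u v :=
    eq_gform (σ : F →+* F) f al sl ar sr
  have hG : IsUnit (gram f).det := by
    apply isUnit_det_of_nondeg σ
    intro v hv
    obtain ⟨x, hx⟩ := (hnd v hv).1
    exact ⟨x, by rwa [← hE]⟩
  have hinv : ∀ x ∈ N, (x : Matrix ι ι F)ᵀ * gram f * (x : Matrix ι ι F).map (σ : F →+* F) =
      gram f := by
    intro x hx
    apply gform_ext (σ : F →+* F)
    intro u v
    rw [← gform_mulVec, ← hE, ← hE]
    exact hf _ ⟨x, hx, rfl⟩ u v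
  intro g hg
  obtain ⟨c, hc⟩ := sim_of_gram H N hN henv (σ : F →+* F) (gram f) hG hinv g hg
  refine ⟨c, fun u v => ?_⟩
  rw [hE, gform_mulVec, hc, gform_smul, ← hE]

theorem gform_add_left (σ : F →+* F) (G : Matrix ι ι F) (x y v : ι → F) :
    gform σ G (x + y) v = gform σ G x v + gform σ G y v := by
  simp only [gform, add_dotProduct]

theorem gform_smul_left (σ : F →+* F) (G : Matrix ι ι F) (c : F) (x v : ι → F) :
    gform σ G (c • x) v = c * gform σ G x v := by
  simp only [gform, smul_dotProduct, smul_eq_mul]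

theorem gform_add_right (σ : F →+* F) (G : Matrix ι ι F) (v x y : ι → F) :
    gform σ G v (x + y) = gform σ G v x + gform σ G v y := by
  have : (fun i => σ ((x + y) i)) = (fun i => σ (x i)) + (fun i => σ (y i)) := by
    ext i; simp
  simp only [gform, this, Matrix.mulVec_add, dotProduct_add]

theorem gform_smul_right (σ : F →+* F) (G : Matrix ι ι F) (c : F) (v x : ι → F) :
    gform σ G v (c • x) = σ c * gform σ G v x := by
  have : (fun i => σ ((c • x) i)) = σ c • (fun i => σ (x i)) := by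
    ext i; simp
  simp only [gform, this, Matrix.mulVec_smul, dotProduct_smul, smul_eq_mul]

/-- hermitian adjoint of the Gram matrix -/
theorem gform_herm (σ : F →+* F) (hinv : ∀ a, σ (σ a) = a) (K : Matrix ι ι F) (v w : ι → F) :
    gform σ K v w = σ (gform σ ((K.map σ)ᵀ) w v) := by
  simp only [gform, dotProduct, Matrix.mulVec, map_sum, map_mul, Matrix.transpose_apply,
    Matrix.map_apply, hinv, Finset.mul_sum]
  rw [Finset.sum_comm]
  refine Finset.sum_congr rfl fun i _ => Finset.sum_congr rfl fun j _ => ?_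
  ring

end Cfsg.Agent.Lib.Helper55.Asch
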