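import Cfsg.Agent.Lib.Helper55.Asch.FormCore

set_option autoImplicit false

namespace Cfsg.Agent.Lib.Helper55.Asch

open Cfsg Cfsg.Geo Matrix Cfsg.Agent.Lib.Helper13.Asch
open scoped Kronecker MatrixGroups

variable {ι : Type} [Fintype ι] [DecidableEq ι] {F : Type*} [Field F]

/-- L12c -/
theorem exists_bilinear_form (h2 : (2 : F) ≠ 0) (R : Subgroup (GL ι F)) (henv : env R = ⊤)
    (G : Matrix ι ι F) (hG : IsUnit G.det)
    (hfix : ∀ x ∈ R, (x : Matrix ι ι F)ᵀ * G * (x : Matrix ι ι F) = G) :
    (∃ f : (ι → F) → (ι → F) → F, IsSymplecticForm f ∧ FixesForm (matrixSet R) f) ∨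
    (∃ Q : (ι → F) → F, IsNondegenerateQuadraticForm Q ∧ FixesQuadForm (matrixSet R) Q) := by
  set τ : F →+* F := ((RingEquiv.refl F : F ≃+* F) : F →+* F) with hτ
  have hmap : ∀ M : Matrix ι ι F, M.map τ = M := by
    intro M; ext i j; simp [hτ]
  have hfix' : ∀ x ∈ R, (x : Matrix ι ι F)ᵀ * G * (x : Matrix ι ι F).map τ = G := by
    intro x hx; rw [hmap]; exact hfix x hx
  have hT : ∀ x ∈ R, (x : Matrix ι ι F)ᵀ * Gᵀ * (x : Matrix ι ι F).map τ = Gᵀ := by
    intro x hx
    rw [hmap]
    have h1 := congrArg Matrix.transpose (hfix x hx)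
    rw [Matrix.transpose_mul, Matrix.transpose_mul, Matrix.transpose_transpose,
      ← Matrix.mul_assoc] at h1
    exact h1
  obtain ⟨c, hc⟩ := gram_unique henv τ G _ hG hfix' hT
  have hf : ∀ u v, gform τ G u v = gform τ Gᵀ v u := by
    intro u v
    have := gform_herm τ (fun a => rfl) G u v
    rw [hmap] at this
    exact this
  have hnd : IsNondegenerateForm (gform τ G) := nondeg_of_isUnit_det (RingEquiv.refl F) G hG
  have hbil : IsBilinearForm (gform τ G) :=
    ⟨gform_add_left τ G, gform_smul_left τ G, gform_add_right τ G,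
      fun c v x => by rw [gform_smul_right]; rfl⟩
  have hfixf : FixesForm (matrixSet R) (gform τ G) := by
    rintro _ ⟨x, hx, rfl⟩ u v
    rw [gform_mulVec, hfix' x hx]
  have hcase : Gᵀ = G ∨ Gᵀ = -G := by
    by_cases hG0 : G = 0
    · left; rw [hG0, Matrix.transpose_zero]
    · have h1 : G = (c * c) • G := by
        have := congrArg Matrix.transpose hc
        rw [Matrix.transpose_transpose, Matrix.transpose_smul, hc, smul_smul] at this
        exact this
      obtain ⟨i, j, hij⟩ : ∃ i j, G i j ≠ 0 := by
        by_contra hcon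
        push Not at hcon
        exact hG0 (by ext i j; exact hcon i j)
      have h3 := congrFun (congrFun h1 i) j
      rw [Matrix.smul_apply, smul_eq_mul] at h3
      have hcc : c * c = 1 := (mul_right_cancel₀ hij (by rw [one_mul]; exact h3)).symm
      rcases mul_self_eq_one_iff.1 hcc with h | h
      · left; rw [hc, h, one_smul]
      · right; rw [hc, h, neg_smul, one_smul]
  rcases hcase with hs | hs
  · -- symmetric: a quadratic form
    right
    have hsymm : ∀ u v, gform τ G u v = gform τ G v u := by
      intro u v; rw [hf u v, hs]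
    have hpol : ∀ u v, QuadraticMap.polar (fun v => gform τ G v v / 2) u v = gform τ G u v := by
      intro u v
      simp only [QuadraticMap.polar]
      rw [gform_add_left, gform_add_right, gform_add_right, hsymm v u]
      field_simp
      ring
    have hpol' : QuadraticMap.polar (fun v => gform τ G v v / 2) = gform τ G := by
      ext u v; exact hpol u v
    refine ⟨fun v => gform τ G v v / 2, ⟨?_, ?_, ?_⟩, ?_⟩
    · intro a v
      show gform τ G (a • v) (a • v) / 2 = a ^ 2 * (gform τ G v v / 2)
      rw [hbil.smul_left, hbil.smul_right]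
      ring
    · rw [hpol']; exact hbil
    · rw [hpol']; exact hnd
    · intro s hs' v
      show gform τ G (s *ᵥ v) (s *ᵥ v) / 2 = gform τ G v v / 2
      rw [hfixf s hs']
  · left
    have hskew : ∀ u v, gform τ G u v = - gform τ G v u := by
      intro u v
      rw [hf u v, hs]
      have : (-G) = (-1 : F) • G := by rw [neg_smul, one_smul]
      rw [this, gform_smul]
      ring
    refine ⟨gform τ G, ⟨hbil, hskew, ?_, hnd⟩, hfixf⟩
    intro v
    have h1 := hskew v v
    have h3 : 2 * gform τ G v v = 0 := by linear_combination h1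
    exact (mul_eq_zero.1 h3).resolve_left h2

end Cfsg.Agent.Lib.Helper55.Asch
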