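import Cfsg.Agent.Lib.Helper55.Asch.FormCore

set_option autoImplicit false

namespace Cfsg.Agent.Lib.Helper55.Asch

open Cfsg Cfsg.Geo Matrix Cfsg.Agent.Lib.Helper13.Asch
open scoped Kronecker MatrixGroups

variable {ι : Type} [Fintype ι] [DecidableEq ι] {F : Type*} [Field F]

/-- L12b -/
theorem exists_unitary_form (R : Subgroup (GL ι F)) (henv : env R = ⊤) (σ : F ≃+* F)
    (hne : σ ≠ RingEquiv.refl F) (hinv : ∀ a, σ (σ a) = a) (G : Matrix ι ι F) (hG : IsUnit G.det)
    (hfix : ∀ x ∈ R, (x : Matrix ι ι F)ᵀ * G * (x : Matrix ι ι F).map σ = G) :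
    ∃ f : (ι → F) → (ι → F) → F, IsUnitaryForm σ f ∧ FixesForm (matrixSet R) f := by
  set τ : F →+* F := (σ : F →+* F) with hτ
  have hτinv : ∀ a, τ (τ a) = a := hinv
  have hmm : ∀ M : Matrix ι ι F, (M.map τ).map τ = M := by
    intro M; ext i j; simp [hτinv]
  have hfix' : ∀ x ∈ R, (x : Matrix ι ι F)ᵀ * G * (x : Matrix ι ι F).map τ = G := hfix
  -- the adjoint Gram matrix is invariant
  have hstar : ∀ x ∈ R, (x : Matrix ι ι F)ᵀ * (G.map τ)ᵀ * (x : Matrix ι ι F).map τ = (G.map τ)ᵀ := by
    intro x hx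
    have h1 := congrArg (fun M : Matrix ι ι F => (M.map τ)ᵀ) (hfix' x hx)
    beta_reduce at h1
    rw [Matrix.map_mul, Matrix.map_mul, hmm, Matrix.transpose_mul, Matrix.transpose_mul,
      Matrix.transpose_map, Matrix.transpose_transpose] at h1
    rw [Matrix.mul_assoc]
    exact h1
  obtain ⟨c, hc⟩ := gram_unique henv τ G _ hG hfix' hstar
  -- a non-zero multiple of `G` is self-adjoint
  have hlam : ∃ l : F, l ≠ 0 ∧ ((l • G).map τ)ᵀ = l • G := by
    have hsm : ∀ l : F, ((l • G).map τ)ᵀ = (τ l * c) • G := by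
      intro l
      have : (l • G).map τ = τ l • G.map τ := by
        ext i j; simp
      rw [this, Matrix.transpose_smul, hc, smul_smul]
    by_cases hG0 : G = 0
    · exact ⟨1, one_ne_zero, by rw [hG0]; ext i j; simp⟩
    · have hcc : τ c * c = 1 := by
        have h1 : G = (τ c * c) • G := by
          have h2 := hsm c
          rw [← hc] at h2
          rw [← h2, Matrix.transpose_map, Matrix.transpose_transpose, hmm]
        obtain ⟨i, j, hij⟩ : ∃ i j, G i j ≠ 0 := by
          by_contra hcon
          push Not at hcon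
          exact hG0 (by ext i j; exact hcon i j)
        have h3 := congrFun (congrFun h1 i) j
        rw [Matrix.smul_apply, smul_eq_mul] at h3
        exact (mul_right_cancel₀ hij (by rw [one_mul]; exact h3)).symm
      by_cases hc1 : c = -1
      · obtain ⟨a, ha⟩ : ∃ a, σ a ≠ a := by
          by_contra hcon
          push Not at hcon
          exact hne (RingEquiv.ext hcon)
        refine ⟨a - τ a, sub_ne_zero.2 (Ne.symm ha), ?_⟩
        rw [hsm, hc1, map_sub, hτinv]
        congr 1
        ring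
      · refine ⟨1 + c, fun h => hc1 (by linear_combination h), ?_⟩
        rw [hsm, map_add, map_one]
        congr 1
        linear_combination hcc
  obtain ⟨l, hl0, hl⟩ := hlam
  have hdet : IsUnit (l • G).det := by
    rw [Matrix.det_smul]
    exact (IsUnit.mk0 _ (pow_ne_zero _ hl0)).mul hG
  refine ⟨gform τ (l • G), ⟨hne, hinv, gform_add_left τ _, gform_smul_left τ _, ?_,
    nondeg_of_isUnit_det σ _ hdet⟩, ?_⟩
  · intro v w
    have := gform_herm τ hτinv (l • G) v w
    rw [hl] at this
    exact this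
  · rintro _ ⟨x, hx, rfl⟩ u v
    rw [gform_mulVec, Matrix.mul_smul, Matrix.smul_mul, hfix' x hx]

end Cfsg.Agent.Lib.Helper55.Asch
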