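import Cfsg.Agent.Lib.Helper55.Asch.D4

set_option autoImplicit false

namespace Cfsg.Agent.Lib.Helper55.Asch

open Cfsg Cfsg.Geo Matrix Cfsg.Agent.Lib.Helper13.Asch
open scoped Kronecker MatrixGroups

variable {ι : Type} [Fintype ι] [DecidableEq ι] {F : Type*} [Field F]

/-- two blocks as a sum type -/
def sumE (F : Type*) [Field F] : (Fin 2 → Fin 2 → F) ≃ₗ[F] (Fin 2 ⊕ Fin 2 → F) where
  toFun w := Sum.elim (w 0) (w 1)
  map_add' w w' := by ext (a | a) <;> rfl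
  map_smul' c w := by ext (a | a) <;> rfl
  invFun z := ![z ∘ Sum.inl, z ∘ Sum.inr]
  left_inv w := by
    ext i a
    fin_cases i <;> rfl
  right_inv z := by ext (a | a) <;> rfl

theorem det_antidiag (B C : Matrix (Fin 2) (Fin 2) F) :
    (Matrix.fromBlocks 0 B C 0).det = C.det * B.det := by
  have h1 : Matrix.fromBlocks 0 B C 0 =
      (Matrix.fromBlocks C 0 0 B).submatrix (Equiv.sumComm (Fin 2) (Fin 2)) id := by
    ext (a | a) (b | b) <;> rfl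
  have h2 : Equiv.Perm.sign (Equiv.sumComm (Fin 2) (Fin 2) : Equiv.Perm (Fin 2 ⊕ Fin 2)) = 1 := by
    decide
  rw [h1, Matrix.det_permute, h2, Matrix.det_fromBlocks_zero₁₂]
  simp

/-- the determinant of an element stabilising a decomposition into two planes -/
theorem det_two_planes (Φ : (ι → F) ≃ₗ[F] (Fin 2 → Fin 2 → F)) (g : Matrix ι ι F)
    (σ : Equiv.Perm (Fin 2)) (A : Fin 2 → Matrix (Fin 2) (Fin 2) F)
    (hA : ∀ u i, Φ (g *ᵥ u) (σ i) = A i *ᵥ Φ u i) : g.det = (A 0).det * (A 1).det := by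
  set Ψ : (ι → F) ≃ₗ[F] (Fin 2 ⊕ Fin 2 → F) := Φ ≪≫ₗ sumE F with hΨ
  have hdet : g.det = LinearMap.det ((Ψ : (ι → F) →ₗ[F] (Fin 2 ⊕ Fin 2 → F)) ∘ₗ Matrix.toLin' g ∘ₗ
      (Ψ.symm : (Fin 2 ⊕ Fin 2 → F) →ₗ[F] (ι → F))) := by
    rw [LinearMap.det_conj, LinearMap.det_toLin']
  have hsymm : ∀ z, Φ (Ψ.symm z) = ![z ∘ Sum.inl, z ∘ Sum.inr] := by
    intro z
    simp [hΨ, sumE]
  have hT : ∀ z, ((Ψ : (ι → F) →ₗ[F] (Fin 2 ⊕ Fin 2 → F)) ∘ₗ Matrix.toLin' g ∘ₗ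
      (Ψ.symm : (Fin 2 ⊕ Fin 2 → F) →ₗ[F] (ι → F))) z =
      Sum.elim (Φ (g *ᵥ Ψ.symm z) 0) (Φ (g *ᵥ Ψ.symm z) 1) := by
    intro z
    simp [hΨ, sumE, Matrix.toLin'_apply]
  have hσ : (σ 0 = 0 ∧ σ 1 = 1) ∨ (σ 0 = 1 ∧ σ 1 = 0) := by
    have hall : ∀ τ : Equiv.Perm (Fin 2), (τ 0 = 0 ∧ τ 1 = 1) ∨ (τ 0 = 1 ∧ τ 1 = 0) := by decide
    exact hall σ
  rcases hσ with ⟨h0, h1⟩ | ⟨h0, h1⟩
  · have hN : ((Ψ : (ι → F) →ₗ[F] (Fin 2 ⊕ Fin 2 → F)) ∘ₗ Matrix.toLin' g ∘ₗ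
      (Ψ.symm : (Fin 2 ⊕ Fin 2 → F) →ₗ[F] (ι → F))) =
        Matrix.toLin' (Matrix.fromBlocks (A 0) 0 0 (A 1)) := by
      apply LinearMap.ext
      intro z
      rw [hT, Matrix.toLin'_apply, Matrix.fromBlocks_mulVec]
      have e0 := hA (Ψ.symm z) 0
      have e1 := hA (Ψ.symm z) 1
      rw [h0, hsymm] at e0
      rw [h1, hsymm] at e1
      rw [e0, e1]
      simp
    rw [hdet, hN, LinearMap.det_toLin', Matrix.det_fromBlocks_zero₁₂]
  · have hN : ((Ψ : (ι → F) →ₗ[F] (Fin 2 ⊕ Fin 2 → F)) ∘ₗ Matrix.toLin' g ∘ₗ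
      (Ψ.symm : (Fin 2 ⊕ Fin 2 → F) →ₗ[F] (ι → F))) =
        Matrix.toLin' (Matrix.fromBlocks 0 (A 1) (A 0) 0) := by
      apply LinearMap.ext
      intro z
      rw [hT, Matrix.toLin'_apply, Matrix.fromBlocks_mulVec]
      have e0 := hA (Ψ.symm z) 0
      have e1 := hA (Ψ.symm z) 1
      rw [h0, hsymm] at e0
      rw [h1, hsymm] at e1
      rw [e0, e1]
      simp
    rw [hdet, hN, LinearMap.det_toLin', det_antidiag]

/-- D10 -/
theorem planes_three [Fintype F] (hq : Fintype.card F = 3) (D : Fin 2 → Submodule F (ι → F))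
    (hD : IsMDecomposition 2 D) :
    ∃ f : (ι → F) → (ι → F) → F, IsSymplecticForm f ∧
      decompositionStabilizer D ⊓ specialLinear ι F ≤ similarityGroup f := by
  obtain ⟨Φ, hΦ⟩ := exists_coord hD
  have h1 : ∀ c : F, c ≠ 0 → c ^ 2 = 1 := by
    intro c hc
    have := FiniteField.pow_card_sub_one_eq_one c hc
    rw [hq] at this
    simpa using this
  refine ⟨sumform Φ detForm, sumform_detForm_symplectic Φ, ?_⟩
  rintro g ⟨hg, hg1⟩
  obtain ⟨σ, A, hA0, hA⟩ := exists_blocks Φ hΦ g hg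
  have hdet : (g : Matrix ι ι F).det = 1 := by
    have h2 : Matrix.GeneralLinearGroup.det g = 1 := hg1
    have h3 := congrArg (fun x : Fˣ => (x : F)) h2
    simpa using h3
  have h4 : (A 0).det * (A 1).det = 1 := by
    rw [← det_two_planes Φ _ σ A hA, hdet]
  have h5 : (A 1).det = (A 0).det := by
    have := h1 _ (hA0 0)
    linear_combination (A 0).det * h4 - (A 1).det * this
  refine ⟨Units.mk0 _ (hA0 0), fun u v => ?_⟩
  apply sumform_mulVec Φ detForm _ σ A hA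
  intro i x y
  rw [detForm_mulVec]
  fin_cases i
  · rfl
  · show (A 1).det * _ = _
    rw [h5]
    rfl

end Cfsg.Agent.Lib.Helper55.Asch
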