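import Cfsg.Agent.Lib.Helper55.Asch.DecCore
import Cfsg.Agent.Lib.Helper58.Asch.L0a

set_option autoImplicit false

namespace Cfsg.Agent.Lib.Helper55.Asch

open Cfsg Cfsg.Geo Matrix Cfsg.Agent.Lib.Helper13.Asch
open scoped Kronecker MatrixGroups

variable {ι : Type} [Fintype ι] [DecidableEq ι] {F : Type*} [Field F]

/-- D3a -/
theorem monomial_two [Fintype F] (hq : Fintype.card F = 2) {t : ℕ} (D : Fin t → Submodule F (ι → F))
    (hD : IsMDecomposition 1 D) :
    ∃ W : Submodule F (ι → F), W ≠ ⊥ ∧ W ≠ ⊤ ∧ decompositionStabilizer D ≤ subspaceStabilizer W := by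
  obtain ⟨Φ, hΦ⟩ := exists_coord hD
  have h1 : ∀ c : F, c ≠ 0 → c = 1 := by
    intro c hc
    have := FiniteField.pow_card_sub_one_eq_one c hc
    rw [hq] at this
    simpa using this
  set s : ι → F := Φ.symm (fun _ _ => 1) with hs
  have hΦs : Φ s = fun _ _ => 1 := by rw [hs, LinearEquiv.apply_symm_apply]
  have hs0 : s ≠ 0 := by
    intro h0
    have h2 := hΦs
    rw [h0, map_zero] at h2
    have h3 := congrFun (congrFun h2 ⟨0, by have := hD.two_le; omega⟩) 0
    simp at h3
  have hfix : ∀ g ∈ decompositionStabilizer D, (g : Matrix ι ι F) *ᵥ s = s := by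
    intro g hg
    obtain ⟨σ, A, hA0, hA⟩ := exists_blocks Φ hΦ g hg
    apply Φ.injective
    ext j a
    obtain ⟨i, rfl⟩ := σ.surjective j
    rw [hA, hΦs]
    have ha : a = 0 := Subsingleton.elim _ _
    subst ha
    have hdet : (A i).det = A i 0 0 := Matrix.det_fin_one (A i)
    have h3 : A i 0 0 = 1 := h1 _ (hdet ▸ hA0 i)
    simp [Matrix.mulVec, dotProduct, h3]
  refine ⟨Submodule.span F {s}, ?_, ?_, ?_⟩
  · intro h
    rw [Submodule.span_singleton_eq_bot] at h
    exact hs0 h
  · intro h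
    have h2 := finrank_span_singleton (K := F) hs0
    rw [h, finrank_top, Module.finrank_fintype_fun_eq_card, ← card_of_decomp D hD] at h2
    have := hD.two_le
    omega
  · apply Cfsg.Agent.Lib.Helper58.Asch.le_subspaceStabilizer
    rintro _ ⟨g, hg, rfl⟩
    rw [Submodule.map_span, Set.image_singleton, Matrix.toLin'_apply, hfix g hg]

end Cfsg.Agent.Lib.Helper55.Asch
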