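import Cfsg.Agent.Lib.Helper55.Asch.DecCore

set_option autoImplicit false

namespace Cfsg.Agent.Lib.Helper55.Asch

open Cfsg Cfsg.Geo Matrix Cfsg.Agent.Lib.Helper13.Asch
open scoped Kronecker MatrixGroups

variable {ι : Type} [Fintype ι] [DecidableEq ι] {F : Type*} [Field F]

/-- `2xy` on `F¹` -/
def twoMul (x y : Fin 1 → F) : F := 2 * (x 0 * y 0)

/-- D3b -/
theorem monomial_three [Fintype F] (hq : Fintype.card F = 3) {t : ℕ}
    (D : Fin t → Submodule F (ι → F)) (hD : IsMDecomposition 1 D) :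
    ∃ Q : (ι → F) → F, IsNondegenerateQuadraticForm Q ∧
      decompositionStabilizer D ≤ quadSimilarityGroup Q := by
  obtain ⟨Φ, hΦ⟩ := exists_coord hD
  have h1 : ∀ c : F, c ≠ 0 → c ^ 2 = 1 := by
    intro c hc
    have := FiniteField.pow_card_sub_one_eq_one c hc
    rw [hq] at this
    simpa using this
  have h2 : (2 : F) ≠ 0 := by
    apply Ring.two_ne_zero
    intro h
    have := FiniteField.even_card_of_char_two h
    rw [hq] at this
    omega
  have hpol : QuadraticMap.polar (fun u : ι → F => ∑ i, (Φ u i 0) ^ 2) = sumform Φ twoMul := by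
    ext u v
    simp only [QuadraticMap.polar, sumform, twoMul, map_add, Pi.add_apply]
    rw [← Finset.sum_sub_distrib, ← Finset.sum_sub_distrib]
    refine Finset.sum_congr rfl fun i _ => ?_
    ring
  have hb : IsBilinearForm (twoMul (F := F)) := by
    refine ⟨?_, ?_, ?_, ?_⟩
    · intro x y v; simp only [twoMul, Pi.add_apply]; ring
    · intro c x v; simp only [twoMul, Pi.smul_apply, smul_eq_mul]; ring
    · intro v x y; simp only [twoMul, Pi.add_apply]; ring
    · intro c v x; simp only [twoMul, Pi.smul_apply, smul_eq_mul]; ring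
  have hnd : IsNondegenerateForm (twoMul (F := F)) := by
    intro v hv
    have hv0 : v 0 ≠ 0 := by
      intro h
      apply hv
      ext i
      rw [Subsingleton.elim i 0, h]; rfl
    exact ⟨⟨fun _ => 1, by simpa [twoMul] using ⟨h2, hv0⟩⟩, ⟨fun _ => 1, by simpa [twoMul] using ⟨h2, hv0⟩⟩⟩
  refine ⟨fun u => ∑ i, (Φ u i 0) ^ 2, ⟨?_, ?_, ?_⟩, ?_⟩
  · intro c v
    simp only [map_smul, Pi.smul_apply, smul_eq_mul, Finset.mul_sum]
    refine Finset.sum_congr rfl fun i _ => ?_
    ring
  · rw [hpol]; exact sumform_bilinear Φ _ hb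
  · rw [hpol]
    exact sumform_nondeg Φ _ (fun y => by simp [twoMul]) (fun x => by simp [twoMul]) hnd
  · intro g hg
    obtain ⟨σ, A, hA0, hA⟩ := exists_blocks Φ hΦ g hg
    refine ⟨1, fun v => ?_⟩
    show ∑ i, (Φ ((g : Matrix ι ι F) *ᵥ v) i 0) ^ 2 = ((1 : Fˣ) : F) * ∑ i, (Φ v i 0) ^ 2
    rw [← Equiv.sum_comp σ, Units.val_one, one_mul]
    refine Finset.sum_congr rfl fun i _ => ?_
    rw [hA]
    have hdet : (A i).det = A i 0 0 := Matrix.det_fin_one (A i)
    have h3 : (A i 0 0) ^ 2 = 1 := h1 _ (hdet ▸ hA0 i)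
    simp only [Matrix.mulVec, dotProduct, Finset.univ_unique, Fin.default_eq_zero,
      Finset.sum_singleton]
    rw [mul_pow, h3, one_mul]

end Cfsg.Agent.Lib.Helper55.Asch
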