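import Cfsg.Agent.Lib.Helper55.Asch.DecCore

set_option autoImplicit false

namespace Cfsg.Agent.Lib.Helper55.Asch

open Cfsg Cfsg.Geo Matrix Cfsg.Agent.Lib.Helper13.Asch
open scoped Kronecker MatrixGroups

variable {ι : Type} [Fintype ι] [DecidableEq ι] {F : Type*} [Field F]

/-- the squaring automorphism of the field with four elements -/
theorem exists_sq_equiv [Fintype F] (hq : Fintype.card F = 4) :
    ∃ σ : F ≃+* F, (∀ a, σ a = a ^ 2) ∧ σ ≠ RingEquiv.refl F ∧ ∀ a, σ (σ a) = a := by
  classical
  have h2 : (2 : F) = 0 := by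
    have hc : ringChar F = 2 := by
      rw [FiniteField.even_card_iff_char_two, hq]
    have := ringChar.Nat.cast_ringChar (R := F)
    rw [hc] at this
    exact_mod_cast this
  have h4 : ∀ a : F, (a ^ 2) ^ 2 = a := by
    intro a
    have := FiniteField.pow_card a
    rw [hq] at this
    rw [← pow_mul]
    exact this
  let σ : F ≃+* F :=
    { toFun := fun a => a ^ 2
      invFun := fun a => a ^ 2
      left_inv := h4
      right_inv := h4
      map_mul' := fun a b => mul_pow a b 2
      map_add' := fun a b => by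
        have : (a + b) ^ 2 = a ^ 2 + b ^ 2 + 2 * (a * b) := by ring
        rw [this, h2, zero_mul, add_zero] }
  refine ⟨σ, fun a => rfl, ?_, h4⟩
  intro h
  have hall : ∀ a : F, a ^ 2 = a := fun a => by
    have := congrArg (fun τ : F ≃+* F => τ a) h
    exact this
  have hsub : (Finset.univ : Finset F) ⊆ {0, 1} := by
    intro a _
    have h3 : a * (a - 1) = 0 := by linear_combination hall a
    rcases mul_eq_zero.1 h3 with h5 | h5
    · simp [h5]
    · simp [sub_eq_zero.1 h5]
  have := Finset.card_le_card hsub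
  rw [Finset.card_univ, hq] at this
  have h6 : ({0, 1} : Finset F).card ≤ 2 := Finset.card_le_two
  omega

/-- D3c -/
theorem monomial_four [Fintype F] (hq : Fintype.card F = 4) {t : ℕ}
    (D : Fin t → Submodule F (ι → F)) (hD : IsMDecomposition 1 D) :
    ∃ (σ : F ≃+* F) (f : (ι → F) → (ι → F) → F), IsUnitaryForm σ f ∧
      decompositionStabilizer D ≤ similarityGroup f := by
  obtain ⟨Φ, hΦ⟩ := exists_coord hD
  obtain ⟨σ, hσ, hne, hinv⟩ := exists_sq_equiv hq
  have h1 : ∀ c : F, c ≠ 0 → c ^ 3 = 1 := by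
    intro c hc
    have := FiniteField.pow_card_sub_one_eq_one c hc
    rw [hq] at this
    simpa using this
  set β : (Fin 1 → F) → (Fin 1 → F) → F := fun x y => x 0 * σ (y 0) with hβ
  have hnd : IsNondegenerateForm β := by
    intro v hv
    have hv0 : v 0 ≠ 0 := by
      intro h
      apply hv
      ext i
      rw [Subsingleton.elim i 0, h]; rfl
    exact ⟨⟨fun _ => 1, by simpa [hβ] using hv0⟩, ⟨fun _ => 1, by simpa [hβ] using hv0⟩⟩
  refine ⟨σ, sumform Φ β, ⟨hne, hinv, ?_, ?_, ?_, ?_⟩, ?_⟩
  · exact sumform_add_left Φ β (fun x y v => by simp only [hβ, Pi.add_apply]; ring)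
  · exact sumform_smul_left Φ β (fun c x v => by simp only [hβ, Pi.smul_apply, smul_eq_mul]; ring)
  · intro v w
    simp only [sumform, map_sum, hβ, map_mul, hinv]
    exact Finset.sum_congr rfl fun i _ => mul_comm _ _
  · exact sumform_nondeg Φ β (fun y => by simp [hβ]) (fun x => by simp [hβ]) hnd
  · intro g hg
    obtain ⟨τ, A, hA0, hA⟩ := exists_blocks Φ hΦ g hg
    refine ⟨1, fun u v => ?_⟩
    apply sumform_mulVec Φ β _ τ A hA
    intro i x y
    have hdet : (A i).det = A i 0 0 := Matrix.det_fin_one (A i)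
    have h3 : (A i 0 0) ^ 3 = 1 := h1 _ (hdet ▸ hA0 i)
    simp only [hβ, Matrix.mulVec, dotProduct, Finset.univ_unique, Fin.default_eq_zero,
      Finset.sum_singleton, hσ, Units.val_one, one_mul]
    linear_combination (x 0 * y 0 ^ 2) * h3

end Cfsg.Agent.Lib.Helper55.Asch
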