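import Cfsg.Agent.Lib.Helper55.Asch.DecCore

set_option autoImplicit false

namespace Cfsg.Agent.Lib.Helper55.Asch

open Cfsg Cfsg.Geo Matrix Cfsg.Agent.Lib.Helper13.Asch
open scoped Kronecker MatrixGroups

variable {ι : Type} [Fintype ι] [DecidableEq ι] {F : Type*} [Field F]

/-- the determinant form on `F²` -/
def detForm (x y : Fin 2 → F) : F := x 0 * y 1 - x 1 * y 0

theorem detForm_mulVec (A : Matrix (Fin 2) (Fin 2) F) (x y : Fin 2 → F) :
    detForm (A *ᵥ x) (A *ᵥ y) = A.det * detForm x y := by
  simp only [detForm, Matrix.mulVec, dotProduct, Fin.sum_univ_two, Matrix.det_fin_two]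
  ring

theorem detForm_symplectic : IsSymplecticForm (detForm (F := F)) := by
  refine ⟨⟨?_, ?_, ?_, ?_⟩, ?_, ?_, ?_⟩
  · intro x y v; simp only [detForm, Pi.add_apply]; ring
  · intro c x v; simp only [detForm, Pi.smul_apply, smul_eq_mul]; ring
  · intro v x y; simp only [detForm, Pi.add_apply]; ring
  · intro c v x; simp only [detForm, Pi.smul_apply, smul_eq_mul]; ring
  · intro v w; simp only [detForm]; ring
  · intro v; simp only [detForm]; ring
  · intro v hv
    have : v 0 ≠ 0 ∨ v 1 ≠ 0 := by
      by_contra hcon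
      push Not at hcon
      apply hv
      ext i
      fin_cases i
      · exact hcon.1
      · exact hcon.2
    rcases this with h | h
    · exact ⟨⟨![0, 1], by simpa [detForm] using h⟩, ⟨![0, 1], by simpa [detForm] using h⟩⟩
    · exact ⟨⟨![1, 0], by simpa [detForm] using h⟩, ⟨![1, 0], by simpa [detForm] using h⟩⟩

theorem sumform_detForm_symplectic {t : ℕ} (Φ : (ι → F) ≃ₗ[F] (Fin t → Fin 2 → F)) :
    IsSymplecticForm (sumform Φ detForm) := by
  have h := detForm_symplectic (F := F)
  refine ⟨sumform_bilinear Φ _ h.bilinear, ?_, ?_, sumform_nondeg Φ _ ?_ ?_ h.nondegenerate⟩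
  · intro v w
    simp only [sumform]
    rw [← Finset.sum_neg_distrib]
    exact Finset.sum_congr rfl fun i _ => h.skew _ _
  · intro v
    simp only [sumform]
    exact Finset.sum_eq_zero fun i _ => h.alternating _
  · intro y; simp [detForm]
  · intro x; simp [detForm]

/-- D4 -/
theorem blocks_two [Fintype F] (hq : Fintype.card F = 2) {t : ℕ} (D : Fin t → Submodule F (ι → F))
    (hD : IsMDecomposition 2 D) :
    ∃ f : (ι → F) → (ι → F) → F, IsSymplecticForm f ∧
      decompositionStabilizer D ≤ similarityGroup f := by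
  obtain ⟨Φ, hΦ⟩ := exists_coord hD
  have h1 : ∀ c : F, c ≠ 0 → c = 1 := by
    intro c hc
    have := FiniteField.pow_card_sub_one_eq_one c hc
    rw [hq] at this
    simpa using this
  refine ⟨sumform Φ detForm, sumform_detForm_symplectic Φ, ?_⟩
  intro g hg
  obtain ⟨σ, A, hA0, hA⟩ := exists_blocks Φ hΦ g hg
  refine ⟨1, fun u v => ?_⟩
  apply sumform_mulVec Φ detForm _ σ A hA
  intro i x y
  rw [detForm_mulVec, h1 _ (hA0 i)]
  rfl

end Cfsg.Agent.Lib.Helper55.Asch
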